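/-
Helper library (helper34): the statements of the Bender–Glauberman rows of sections 13-15 as `Prop`s
(`HNNNN G` is the statement of row SNNNN for the group `G`, without the hypothesis
`IsMinSimpleOddOrder G`), so that later rows can be derived from them before they are proved.
-/
import Cfsg.Prelude.Def_OddOrderLocal

set_option autoImplicit false

namespace Cfsg.Agent.Lib.Helper34.BGRows

universe u

def H1351 (G : Type u) [Group G] [Finite G] : Prop :=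
  ∀ (M : Subgroup G) (hM : IsCoatom M),
    (∃ K : Subgroup G, Cfsg.IsPiHallOf (Cfsg.kappa M) K M) ∧
      ∀ K : Subgroup G, Cfsg.IsPiHallOf (Cfsg.kappa M) K M → IsCyclic K

def H1352 (G : Type u) [Group G] [Finite G] : Prop :=
  ∀ (M : Subgroup G) (hM : IsCoatom M) (K : Subgroup G)
    (hKc : IsCyclic K) (hK : Cfsg.IsPiHallOf (Cfsg.kappa M) K M),
    (∃ U : Subgroup G, Cfsg.IsSigmaDecomposition M K U) ∧
      ∀ U : Subgroup G, Cfsg.IsSigmaDecomposition M K U → M ≤ Subgroup.normalizer ((U ⊔ Cfsg.sigmaCore M : Subgroup G) : Set G)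

def H1353 (G : Type u) [Group G] [Finite G] : Prop :=
  ∀ (M : Subgroup G) (hM : IsCoatom M) (K U : Subgroup G) (hKU : Cfsg.IsSigmaDecomposition M K U),
    ∀ k ∈ K, k ≠ 1 → U ⊓ Subgroup.centralizer ({k} : Set G) = ⊥

def H1354 (G : Type u) [Group G] [Finite G] : Prop :=
  ∀ (M : Subgroup G) (hM : IsCoatom M) (K : Subgroup G)
    (hKc : IsCyclic K) (hK : Cfsg.IsPiHallOf (Cfsg.kappa M) K M),
    Cfsg.sigmaCore M ⊓ Subgroup.centralizer (K : Set G) ≠ ⊥ ∧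
      (K ≠ ⊥ → ∀ k ∈ K, k ≠ 1 →
        M ⊓ Subgroup.centralizer ({k} : Set G) = K ⊔ (Cfsg.sigmaCore M ⊓ Subgroup.centralizer (K : Set G)))

def H1355 (G : Type u) [Group G] [Finite G] : Prop :=
  ∀ (M : Subgroup G) (hM : IsCoatom M),
    Cfsg.fittingHallOf M ≠ ⊥ ∧ Cfsg.fittingHallOf M ≤ Cfsg.sigmaCore M ∧ Cfsg.sigmaCore M ≤ ⁅M, M⁆ ∧ ⁅M, M⁆ < M ∧
      Group.IsNilpotent ↥((commutator ↥M).map (QuotientGroup.mk' (Cfsg.fittingHall ↥M)))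

def H1356 (G : Type u) [Group G] [Finite G] : Prop :=
  ∀ (M : Subgroup G) (hM : IsCoatom M),
    ⁅⁅M, M⁆, ⁅M, M⁆⁆ ≤ Cfsg.fittingOf M ∧
      Cfsg.fittingOf M = (M ⊓ Subgroup.centralizer (Cfsg.fittingHallOf M : Set G)) ⊔ Cfsg.fittingHallOf M ∧
      ((Cfsg.kappa M).Nonempty → Cfsg.fittingOf M ≤ ⁅M, M⁆)

def H1357 (G : Type u) [Group G] [Finite G] : Prop :=
  ∀ (M : Subgroup G) (hM : IsCoatom M) (K U : Subgroup G) (hKU : Cfsg.IsSigmaDecomposition M K U) (hne : Cfsg.fittingHallOf M ≠ Cfsg.sigmaCore M),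
    U = ⊥ ∧ Cfsg.IsTISubset (Cfsg.fittingOf M : Set G) ∧ (Nat.card K).Prime

def H1360 (G : Type u) [Group G] [Finite G] : Prop :=
  ∀ (M : Subgroup G) (hM : IsCoatom M) (K U : Subgroup G) (hKU : Cfsg.IsSigmaDecomposition M K U),
    ∃ U₀ : Subgroup G, U₀ ≤ U ∧ Monoid.exponent U₀ = Monoid.exponent U ∧ ∀ u ∈ U₀, u ∈ Cfsg.sigmaHat M → u = 1

def H1363 (G : Type u) [Group G] [Finite G] : Prop :=
  ∀ (M : Subgroup G) (hM : IsCoatom M) (K U : Subgroup G) (hKU : Cfsg.IsSigmaDecomposition M K U) (hK1 : K ≠ ⊥),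
    IsMulCommutative U ∧ ¬ Subgroup.normalizer (U : Set G) ≤ M

def H1364 (G : Type u) [Group G] [Finite G] : Prop :=
  ∀ (M : Subgroup G) (hM : IsCoatom M) (K U : Subgroup G) (hKU : Cfsg.IsSigmaDecomposition M K U) (hK1 : K ≠ ⊥),
    IsCyclic ↥(Cfsg.sigmaCore M ⊓ Subgroup.centralizer (K : Set G)) ∧ (Cfsg.sigmaCore M ⊓ Subgroup.centralizer (K : Set G)) ≠ ⊥ ∧ (Cfsg.sigmaCore M ⊓ Subgroup.centralizer (K : Set G)) ≤ Cfsg.fittingHallOf M ∧ ¬ IsCyclic (Cfsg.fittingHallOf M)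

def H1365 (G : Type u) [Group G] [Finite G] : Prop :=
  ∀ (M : Subgroup G) (hM : IsCoatom M) (K U : Subgroup G) (hKU : Cfsg.IsSigmaDecomposition M K U) (hK1 : K ≠ ⊥),
    ⁅M, M⁆ = U ⊔ Cfsg.sigmaCore M ∧ (Cfsg.sigmaCore M ⊓ Subgroup.centralizer (K : Set G)) ≤ ⁅⁅M, M⁆, ⁅M, M⁆⁆

def H1366 (G : Type u) [Group G] [Finite G] : Prop :=
  ∀ (M : Subgroup G) (hM : IsCoatom M) (K U : Subgroup G) (hKU : Cfsg.IsSigmaDecomposition M K U) (hK1 : K ≠ ⊥),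
    ∃! Mstar : Subgroup G, IsCoatom Mstar ∧ K = Cfsg.sigmaCore Mstar ⊓ Subgroup.centralizer ((Cfsg.sigmaCore M ⊓ Subgroup.centralizer (K : Set G)) : Set G) ∧
        Cfsg.IsPiHallOf (Cfsg.kappa Mstar) (Cfsg.sigmaCore M ⊓ Subgroup.centralizer (K : Set G)) Mstar

def H1367 (G : Type u) [Group G] [Finite G] : Prop :=
  ∀ (M : Subgroup G) (hM : IsCoatom M) (K U : Subgroup G) (hKU : Cfsg.IsSigmaDecomposition M K U) (hK1 : K ≠ ⊥) (Mstar : Subgroup G) (hMstar : IsCoatom Mstar)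
    (hKst : K = Cfsg.sigmaCore Mstar ⊓ Subgroup.centralizer ((Cfsg.sigmaCore M ⊓ Subgroup.centralizer (K : Set G)) : Set G))
    (hKstH : Cfsg.IsPiHallOf (Cfsg.kappa Mstar) (Cfsg.sigmaCore M ⊓ Subgroup.centralizer (K : Set G)) Mstar),
    (∀ X : Subgroup G, X ≤ (Cfsg.sigmaCore M ⊓ Subgroup.centralizer (K : Set G)) → (Nat.card X).Prime →
        Subgroup.centralizer (X : Set G) ≤ M ∧ ∀ L : Subgroup G, IsCoatom L → Subgroup.centralizer (X : Set G) ≤ L → L = M) ∧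
      (∀ Y : Subgroup G, Y ≤ K → (Nat.card Y).Prime →
        Subgroup.centralizer (Y : Set G) ≤ Mstar ∧ ∀ L : Subgroup G, IsCoatom L → Subgroup.centralizer (Y : Set G) ≤ L → L = Mstar)

def H1368 (G : Type u) [Group G] [Finite G] : Prop :=
  ∀ (M : Subgroup G) (hM : IsCoatom M) (K U : Subgroup G) (hKU : Cfsg.IsSigmaDecomposition M K U) (hK1 : K ≠ ⊥) (Mstar : Subgroup G) (hMstar : IsCoatom Mstar)
    (hKst : K = Cfsg.sigmaCore Mstar ⊓ Subgroup.centralizer ((Cfsg.sigmaCore M ⊓ Subgroup.centralizer (K : Set G)) : Set G))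
    (hKstH : Cfsg.IsPiHallOf (Cfsg.kappa Mstar) (Cfsg.sigmaCore M ⊓ Subgroup.centralizer (K : Set G)) Mstar),
    M ⊓ Mstar = K ⊔ (Cfsg.sigmaCore M ⊓ Subgroup.centralizer (K : Set G)) ∧ IsCyclic ↥(K ⊔ (Cfsg.sigmaCore M ⊓ Subgroup.centralizer (K : Set G)))

def H1369 (G : Type u) [Group G] [Finite G] : Prop :=
  ∀ (M : Subgroup G) (hM : IsCoatom M) (K U : Subgroup G) (hKU : Cfsg.IsSigmaDecomposition M K U) (hK1 : K ≠ ⊥) (Mstar : Subgroup G) (hMstar : IsCoatom Mstar)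
    (hKst : K = Cfsg.sigmaCore Mstar ⊓ Subgroup.centralizer ((Cfsg.sigmaCore M ⊓ Subgroup.centralizer (K : Set G)) : Set G))
    (hKstH : Cfsg.IsPiHallOf (Cfsg.kappa Mstar) (Cfsg.sigmaCore M ⊓ Subgroup.centralizer (K : Set G)) Mstar),
    (U ≠ ⊥ ∨ ∀ Ustar : Subgroup G, Cfsg.IsSigmaDecomposition Mstar (Cfsg.sigmaCore M ⊓ Subgroup.centralizer (K : Set G)) Ustar → Ustar ≠ ⊥) ∧
      ∀ H : Subgroup G, IsCoatom H → (Cfsg.kappa H).Nonempty →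
        ∃ g : G, H = M.map (MulAut.conj g).toMonoidHom ∨ H = Mstar.map (MulAut.conj g).toMonoidHom

def H1370 (G : Type u) [Group G] [Finite G] : Prop :=
  ∀ (M : Subgroup G) (hM : IsCoatom M) (K U : Subgroup G) (hKU : Cfsg.IsSigmaDecomposition M K U) (hK1 : K ≠ ⊥),
    Cfsg.IsTISubset ((↑(K ⊔ (Cfsg.sigmaCore M ⊓ Subgroup.centralizer (K : Set G))) : Set G) \ ((K : Set G) ∪ ↑(Cfsg.sigmaCore M ⊓ Subgroup.centralizer (K : Set G)))) ∧ Subgroup.normalizer ((↑(K ⊔ (Cfsg.sigmaCore M ⊓ Subgroup.centralizer (K : Set G))) : Set G) \ ((K : Set G) ∪ ↑(Cfsg.sigmaCore M ⊓ Subgroup.centralizer (K : Set G)))) = K ⊔ (Cfsg.sigmaCore M ⊓ Subgroup.centralizer (K : Set G))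

def H1371 (G : Type u) [Group G] [Finite G] : Prop :=
  ∀ (M : Subgroup G) (hM : IsCoatom M) (K U : Subgroup G) (hKU : Cfsg.IsSigmaDecomposition M K U) (hK1 : K ≠ ⊥),
    {a : G | ∃ m ∈ M, ∃ z ∈ ((↑(K ⊔ (Cfsg.sigmaCore M ⊓ Subgroup.centralizer (K : Set G))) : Set G) \ ((K : Set G) ∪ ↑(Cfsg.sigmaCore M ⊓ Subgroup.centralizer (K : Set G)))), a = m * z * m⁻¹} = Cfsg.sigmaA0 M K \ Cfsg.sigmaA M U ∧
      Cfsg.IsTISubset (Cfsg.sigmaA0 M K \ Cfsg.sigmaA M U)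

def H1372 (G : Type u) [Group G] [Finite G] : Prop :=
  ∀ (M : Subgroup G) (hM : IsCoatom M) (K U : Subgroup G) (hKU : Cfsg.IsSigmaDecomposition M K U) (hK1 : K ≠ ⊥) (hU1 : U ≠ ⊥),
    (Nat.card K).Prime ∧ Cfsg.IsTISubset (Cfsg.fittingOf M : Set G) ∧ Cfsg.sigmaCore M ≤ Cfsg.fittingOf M

def H1373 (G : Type u) [Group G] [Finite G] : Prop :=
  ∀ (M : Subgroup G) (hM : IsCoatom M) (K U : Subgroup G) (hKU : Cfsg.IsSigmaDecomposition M K U) (hK1 : K ≠ ⊥) (hU : U = ⊥),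
    (Nat.card ↥(Cfsg.sigmaCore M ⊓ Subgroup.centralizer (K : Set G))).Prime

def H1374 (G : Type u) [Group G] [Finite G] : Prop :=
  ∀ (M : Subgroup G) (hM : IsCoatom M) (x : G) (hx : x ∈ Cfsg.sigmaCore M) (hx1 : x ≠ 1),
    (Nat.card ↥(M ⊓ Subgroup.centralizer ({x} : Set G))).Coprime ((M ⊓ Subgroup.centralizer ({x} : Set G)).relIndex (Subgroup.centralizer ({x} : Set G))) ∧
      ∃ R : Subgroup G, Subgroup.centralizer ({x} : Set G) ≤ Subgroup.normalizer (R : Set G) ∧ Cfsg.IsComplIn (M ⊓ Subgroup.centralizer ({x} : Set G)) R (Subgroup.centralizer ({x} : Set G)) ∧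
        ∀ g : G, x ∈ M.map (MulAut.conj g).toMonoidHom → ∃! r : G, r ∈ R ∧ M.map (MulAut.conj r).toMonoidHom = M.map (MulAut.conj g).toMonoidHom

def H1375 (G : Type u) [Group G] [Finite G] : Prop :=
  ∀ (M : Subgroup G) (hM : IsCoatom M) (x : G) (hx : x ∈ Cfsg.sigmaCore M) (hx1 : x ≠ 1) (hxM : ¬ Subgroup.centralizer ({x} : Set G) ≤ M),
    ∃ N : Subgroup G, (IsCoatom N ∧ Subgroup.centralizer ({x} : Set G) ≤ N) ∧ (∀ L : Subgroup G, IsCoatom L → Subgroup.centralizer ({x} : Set G) ≤ L → L = N) ∧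
        Cfsg.sigmaCore N = Cfsg.fittingHallOf N ∧
        Subgroup.centralizer ({x} : Set G) ≤ Subgroup.normalizer ((Cfsg.sigmaCore N ⊓ Subgroup.centralizer ({x} : Set G) : Subgroup G) : Set G) ∧
        Cfsg.IsComplIn (M ⊓ Subgroup.centralizer ({x} : Set G)) (Cfsg.sigmaCore N ⊓ Subgroup.centralizer ({x} : Set G)) (Subgroup.centralizer ({x} : Set G)) ∧
        Cfsg.IsComplIn (M ⊓ N) (Cfsg.sigmaCore N) N ∧
        ∀ K' U' : Subgroup G, Cfsg.IsSigmaDecomposition N K' U' → U' ≠ ⊥ ∧ x ∈ Cfsg.sigmaA N U' ∧ x ∉ Cfsg.sigmaCore N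

def H1376 (G : Type u) [Group G] [Finite G] : Prop :=
  ∀ (M : Subgroup G) (hM : IsCoatom M) (x : G) (hx : x ∈ Cfsg.sigmaCore M) (hx1 : x ≠ 1) (hxM : ¬ Subgroup.centralizer ({x} : Set G) ≤ M)
    (N : Subgroup G) (hN : IsCoatom N) (hxN : Subgroup.centralizer ({x} : Set G) ≤ N) (hkN : (Cfsg.kappa N).Nonempty),
    Cfsg.kappa M = ∅ ∧ (∃ E : Subgroup ↥M, Cfsg.IsFrobeniusComplement E ∧ IsCyclic E) ∧ ¬ Cfsg.IsTISubset (Cfsg.fittingHallOf M : Set G)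

def H1377 (G : Type u) [Group G] [Finite G] : Prop :=
  ∀ (M : Subgroup G) (hM : IsCoatom M),
    Set.ncard (Cfsg.tildeOf M ((Cfsg.sigmaCore M : Set G) \ {1})) = (Nat.card (Cfsg.sigmaCore M) - 1) * M.index

def H1378 (G : Type u) [Group G] [Finite G] : Prop :=
    (∀ p : ℕ, p.Prime → p ∣ Nat.card G → ∃ M : Subgroup G, IsCoatom M ∧ p ∈ Cfsg.sigma M) ∧
      ∀ M N : Subgroup G, IsCoatom M → IsCoatom N → (Cfsg.sigma M ∩ Cfsg.sigma N).Nonempty → ∃ g : G, N = M.map (MulAut.conj g).toMonoidHom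

def H1379 (G : Type u) [Group G] [Finite G] : Prop :=
    (∀ M N : Subgroup G, IsCoatom M → IsCoatom N → (∀ g : G, N ≠ M.map (MulAut.conj g).toMonoidHom) → Cfsg.tildeOf M ((Cfsg.sigmaCore M : Set G) \ {1}) ∩ Cfsg.tildeOf N ((Cfsg.sigmaCore N : Set G) \ {1}) = ∅) ∧
      ((∀ M : Subgroup G, IsCoatom M → Cfsg.kappa M = ∅) →
        ∀ g : G, g ≠ 1 → ∃ M : Subgroup G, IsCoatom M ∧ g ∈ Cfsg.tildeOf M ((Cfsg.sigmaCore M : Set G) \ {1})) ∧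
      ∀ (M K U : Subgroup G), IsCoatom M → Cfsg.IsSigmaDecomposition M K U → K ≠ ⊥ →
        (∀ g : G, g ≠ 1 → (∃ N : Subgroup G, IsCoatom N ∧ g ∈ Cfsg.tildeOf N ((Cfsg.sigmaCore N : Set G) \ {1})) ∨
            ∃ y : G, ∃ z ∈ ((↑(K ⊔ (Cfsg.sigmaCore M ⊓ Subgroup.centralizer (K : Set G))) : Set G) \ ((K : Set G) ∪ ↑(Cfsg.sigmaCore M ⊓ Subgroup.centralizer (K : Set G)))), g = y * z * y⁻¹) ∧
        ∀ N : Subgroup G, IsCoatom N → ∀ y : G, ∀ z ∈ ((↑(K ⊔ (Cfsg.sigmaCore M ⊓ Subgroup.centralizer (K : Set G))) : Set G) \ ((K : Set G) ∪ ↑(Cfsg.sigmaCore M ⊓ Subgroup.centralizer (K : Set G)))), y * z * y⁻¹ ∉ Cfsg.tildeOf N ((Cfsg.sigmaCore N : Set G) \ {1})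

def H1421 (G : Type u) [Group G] [Finite G] : Prop :=
  ∀ (M : Subgroup G) (hM : IsCoatom M) (E : Subgroup G) (hE : Cfsg.IsComplIn E (Cfsg.sigmaCore M) M)
    (h : ∀ e ∈ E, e ≠ 1 → (∀ p : ℕ, p.Prime → p ∣ orderOf e → p ∈ Cfsg.tau1 M ∪ Cfsg.tau3 M) →
      Cfsg.sigmaCore M ⊓ Subgroup.centralizer ({e} : Set G) = ⊥),
    (∃ A₀ : Subgroup G, A₀ ≤ E ∧ E ≤ Subgroup.normalizer (A₀ : Set G) ∧ IsMulCommutative A₀ ∧
        ∀ x ∈ Cfsg.sigmaCore M, x ≠ 1 → E ⊓ Subgroup.centralizer ({x} : Set G) ≤ A₀) ∧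
      ∃ E₀ : Subgroup G, E₀ ≤ E ∧ Monoid.exponent E₀ = Monoid.exponent E ∧
        ∀ e ∈ E₀, e ≠ 1 → Cfsg.sigmaCore M ⊓ Subgroup.centralizer ({e} : Set G) = ⊥

def H1428 (G : Type u) [Group G] [Finite G] : Prop :=
  ∀ (M : Subgroup G) (hM : IsCoatom M) (E : Subgroup G) (hE : Cfsg.IsComplIn E (Cfsg.sigmaCore M) M) (p : ℕ) (hp : p ∈ Cfsg.tau1 M) (P : Subgroup G) (hPE : P ≤ E) (hP : Nat.card P = p)
    (R : Subgroup G) (hRE : R ≤ E ⊓ Subgroup.centralizer (P : Set G)) (hR : (Nat.card R).Prime),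
    Cfsg.sigmaCore M ⊓ Subgroup.centralizer (P : Set G) ≤ Cfsg.sigmaCore M ⊓ Subgroup.centralizer (R : Set G)

def H1430 (G : Type u) [Group G] [Finite G] : Prop :=
  ∀ (M : Subgroup G) (hM : IsCoatom M) (K : Subgroup G) (hK : Cfsg.IsPiHallOf (Cfsg.kappa M) K M) (hK1 : K ≠ ⊥),
    (∀ k ∈ K, k ≠ 1 → Cfsg.sigmaCore M ⊓ Subgroup.centralizer ({k} : Set G) = (Cfsg.sigmaCore M ⊓ Subgroup.centralizer (K : Set G))) ∧
      (∃ U : Subgroup G, IsMulCommutative U ∧ Cfsg.IsPiHallOf {q | q.Prime ∧ q ∉ Cfsg.kappa M ∧ q ∉ Cfsg.sigma M} U M ∧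
        K ≤ Subgroup.normalizer (U : Set G) ∧ ∀ k ∈ K, k ≠ 1 → U ⊓ Subgroup.centralizer ({k} : Set G) = ⊥) ∧
      ∀ X : Subgroup G, X ≤ K → (Nat.card X).Prime →
        M ⊓ Subgroup.normalizer (X : Set G) = K ⊔ (Cfsg.sigmaCore M ⊓ Subgroup.centralizer (K : Set G)) ∧ M ⊓ Subgroup.normalizer (K : Set G) = K ⊔ (Cfsg.sigmaCore M ⊓ Subgroup.centralizer (K : Set G)) ∧
        ∀ Mstar : Subgroup G, IsCoatom Mstar → Subgroup.normalizer (X : Set G) ≤ Mstar → X ≤ Cfsg.sigmaCore Mstar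

def H1431 (G : Type u) [Group G] [Finite G] : Prop :=
  ∀ (M : Subgroup G) (hM : IsCoatom M) (K : Subgroup G) (hK : Cfsg.IsPiHallOf (Cfsg.kappa M) K M) (hK1 : K ≠ ⊥),
    (∀ g : G, g ∉ M → (Cfsg.sigmaCore M ⊓ Subgroup.centralizer (K : Set G)) ⊓ M.map (MulAut.conj g).toMonoidHom = ⊥) ∧
      (∀ g ∈ M, g ∉ K ⊔ (Cfsg.sigmaCore M ⊓ Subgroup.centralizer (K : Set G)) → K ⊓ K.map (MulAut.conj g).toMonoidHom = ⊥) ∧
      (∀ (p : ℕ), p.Prime → p ∣ Nat.card ↥(Cfsg.sigmaCore M ⊓ Subgroup.centralizer (K : Set G)) → ∀ S : Sylow p ↥(Cfsg.sigmaCore M),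
        Cfsg.InUniqueMaximal ((S : Subgroup ↥(Cfsg.sigmaCore M)).map (Cfsg.sigmaCore M).subtype) ∧
        (S : Subgroup ↥(Cfsg.sigmaCore M)).map (Cfsg.sigmaCore M).subtype ≤ M ∧
        ¬ (S : Subgroup ↥(Cfsg.sigmaCore M)).map (Cfsg.sigmaCore M).subtype ≤ (Cfsg.sigmaCore M ⊓ Subgroup.centralizer (K : Set G))) ∧
      ∀ Y : Subgroup G, (∀ p : ℕ, p.Prime → p ∣ Nat.card Y → p ∈ Cfsg.sigma M) → Y ⊓ (Cfsg.sigmaCore M ⊓ Subgroup.centralizer (K : Set G)) ≠ ⊥ → Y ≤ Cfsg.sigmaCore M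

def H1432 (G : Type u) [Group G] [Finite G] : Prop :=
  ∀ (M : Subgroup G) (hM : IsCoatom M) (x : G) (hx : x ∈ Cfsg.sigmaCore M) (hx1 : x ≠ 1) (x' : G) (hx' : x' ∈ M ⊓ Subgroup.centralizer ({x} : Set G)) (hx'1 : x' ≠ 1)
    (hσ : ∀ p : ℕ, p.Prime → p ∣ orderOf x' → p ∉ Cfsg.sigma M),
    ((∀ p : ℕ, p.Prime → p ∣ orderOf x' → p ∈ Cfsg.kappa M) ∧ Subgroup.centralizer ({x} : Set G) ≤ M) ∨
      ((∀ p : ℕ, p.Prime → p ∣ orderOf x' → p ∈ Cfsg.tau2 M) ∧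
        (∃ L : Subgroup G, IsCoatom L ∧ ∀ p : ℕ, p.Prime → p ∣ orderOf x' → p ∈ Cfsg.sigma L) ∧
        (Subgroup.centralizer ({x'} : Set G) ≤ M ∧ ∀ L : Subgroup G, IsCoatom L → Subgroup.centralizer ({x'} : Set G) ≤ L → L = M))

def H1433 (G : Type u) [Group G] [Finite G] : Prop :=
  ∀ (M N : Subgroup G) (hM : IsCoatom M) (hN : IsCoatom N) (x y : G) (hx : x ∈ Cfsg.sigmaCore M) (hy : y ∈ Cfsg.sigmaCore N)
    (hx1 : x ≠ 1) (hy1 : y ≠ 1) (hxy : x ≠ y),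
    ∀ r ∈ Cfsg.supportR M x, ∀ s ∈ Cfsg.supportR N y, x * r ≠ y * s

def H1434 (G : Type u) [Group G] [Finite G] : Prop :=
  ∀ (M : Subgroup G) (hM : IsCoatom M) (K U : Subgroup G) (hKU : Cfsg.IsSigmaDecomposition M K U) (hK1 : K ≠ ⊥) (Mstar : Subgroup G) (hMstar : IsCoatom Mstar)
    (hKst : K = Cfsg.sigmaCore Mstar ⊓ Subgroup.centralizer ((Cfsg.sigmaCore M ⊓ Subgroup.centralizer (K : Set G)) : Set G))
    (hKstH : Cfsg.IsPiHallOf (Cfsg.kappa Mstar) (Cfsg.sigmaCore M ⊓ Subgroup.centralizer (K : Set G)) Mstar),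
    Cfsg.kappa M = Cfsg.tau1 M ∧ Cfsg.IsPiHallOf (Cfsg.sigma M) (Cfsg.sigmaCore M ⊓ Subgroup.centralizer (K : Set G)) Mstar ∧
      (∀ x ∈ K, x ≠ 1 → ∀ y ∈ (Cfsg.sigmaCore M ⊓ Subgroup.centralizer (K : Set G)), y ≠ 1 →
        M ⊓ Subgroup.centralizer ({x} : Set G) = K ⊔ (Cfsg.sigmaCore M ⊓ Subgroup.centralizer (K : Set G)) ∧ Mstar ⊓ Subgroup.centralizer ({y} : Set G) = K ⊔ (Cfsg.sigmaCore M ⊓ Subgroup.centralizer (K : Set G)) ∧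
        Subgroup.centralizer ({x * y} : Set G) = K ⊔ (Cfsg.sigmaCore M ⊓ Subgroup.centralizer (K : Set G))) ∧
      (∀ g : G, g ∉ M → ∀ z ∈ ((↑(K ⊔ (Cfsg.sigmaCore M ⊓ Subgroup.centralizer (K : Set G))) : Set G) \ ((K : Set G) ∪ ↑(Cfsg.sigmaCore M ⊓ Subgroup.centralizer (K : Set G)))), z ∉ M.map (MulAut.conj g).toMonoidHom) ∧
      Nat.card K * Nat.card ↥(Cfsg.sigmaCore M ⊓ Subgroup.centralizer (K : Set G)) * Set.ncard {a : G | ∃ g : G, ∃ z ∈ ((↑(K ⊔ (Cfsg.sigmaCore M ⊓ Subgroup.centralizer (K : Set G))) : Set G) \ ((K : Set G) ∪ ↑(Cfsg.sigmaCore M ⊓ Subgroup.centralizer (K : Set G)))), a = g * z * g⁻¹} =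
        (Nat.card K * Nat.card ↥(Cfsg.sigmaCore M ⊓ Subgroup.centralizer (K : Set G)) - Nat.card K - Nat.card ↥(Cfsg.sigmaCore M ⊓ Subgroup.centralizer (K : Set G)) + 1) * Nat.card G ∧
      Nat.card G < 2 * Set.ncard {a : G | ∃ g : G, ∃ z ∈ ((↑(K ⊔ (Cfsg.sigmaCore M ⊓ Subgroup.centralizer (K : Set G))) : Set G) \ ((K : Set G) ∪ ↑(Cfsg.sigmaCore M ⊓ Subgroup.centralizer (K : Set G)))), a = g * z * g⁻¹}

def H1435 (G : Type u) [Group G] [Finite G] : Prop :=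
  ∀ (M : Subgroup G) (hM : IsCoatom M) (K U : Subgroup G) (hKU : Cfsg.IsSigmaDecomposition M K U) (hK1 : K ≠ ⊥) (hU1 : U ≠ ⊥) (Mstar : Subgroup G) (hMstar : IsCoatom Mstar)
    (hKst : K = Cfsg.sigmaCore Mstar ⊓ Subgroup.centralizer ((Cfsg.sigmaCore M ⊓ Subgroup.centralizer (K : Set G)) : Set G))
    (hKstH : Cfsg.IsPiHallOf (Cfsg.kappa Mstar) (Cfsg.sigmaCore M ⊓ Subgroup.centralizer (K : Set G)) Mstar)
    (r : ℕ) [Fact r.Prime] (hr : r ∣ Nat.card U) (R : Sylow r U) (H : Subgroup G) (hH : IsCoatom H)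
    (hNR : Subgroup.normalizer (((R : Subgroup U).map U.subtype : Subgroup G) : Set G) ≤ H),
    Cfsg.kappa H = ∅ ∧ U ≤ Cfsg.sigmaCore H ∧ M ⊓ H = U ⊔ K ∧ ¬ H ⊓ Subgroup.normalizer (U : Set G) ≤ M ∧
      K ≤ Cfsg.fittingOf (H ⊓ Mstar) ∧ Cfsg.IsComplIn (H ⊓ Mstar) (Cfsg.sigmaCore H) H

def H1436 (G : Type u) [Group G] [Finite G] : Prop :=
  ∀ (M : Subgroup G) (hM : IsCoatom M) (x : G) (hx : x ∈ Cfsg.sigmaCore M) (hx1 : x ≠ 1) (hxM : ¬ Subgroup.centralizer ({x} : Set G) ≤ M)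
    (N : Subgroup G) (hN : IsCoatom N) (hxN : Subgroup.centralizer ({x} : Set G) ≤ N),
    ((∃ p ∈ Cfsg.sigma N, p ∣ Nat.card M) → Cfsg.kappa M = ∅ ∧ Cfsg.tau2 M = ∅) ∧
      ∀ (y : G) (N' : Subgroup G) (g : G), y ∈ Cfsg.sigmaCore M → y ≠ 1 → ¬ Subgroup.centralizer ({y} : Set G) ≤ M → IsCoatom N' → Subgroup.centralizer ({y} : Set G) ≤ N' →
        N'.map (MulAut.conj g).toMonoidHom = N → ∃ m ∈ M, N'.map (MulAut.conj m).toMonoidHom = N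

def H1437 (G : Type u) [Group G] [Finite G] : Prop :=
  ∀ (M : Subgroup G) (hM : IsCoatom M) (K U : Subgroup G) (hKU : Cfsg.IsSigmaDecomposition M K U) (hne : Cfsg.fittingHallOf M ≠ Cfsg.sigmaCore M),
    U = ⊥ ∧ Cfsg.sigmaCore M = ⁅M, M⁆ ∧ (Nat.card K).Prime ∧ (Nat.card ↥(Cfsg.sigmaCore M ⊓ Subgroup.centralizer (K : Set G))).Prime ∧
      Nat.card ↥(Cfsg.sigmaCore M ⊓ Subgroup.centralizer (K : Set G)) ∣ Nat.card (Cfsg.fittingHallOf M) ∧ Nat.card ↥(Cfsg.sigmaCore M ⊓ Subgroup.centralizer (K : Set G)) ∈ Cfsg.beta M ∧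
      ∃ Q : Subgroup G, Q ≤ Cfsg.fittingHallOf M ∧ M ≤ Subgroup.normalizer (Q : Set G) ∧ IsPGroup (Nat.card ↥(Cfsg.sigmaCore M ⊓ Subgroup.centralizer (K : Set G))) Q ∧
        ¬ Nat.card ↥(Cfsg.sigmaCore M ⊓ Subgroup.centralizer (K : Set G)) ∣ Q.relIndex (Cfsg.sigmaCore M) ∧
        ∀ D : Subgroup G, Cfsg.IsComplIn Q D (Cfsg.sigmaCore M) →
          Group.IsNilpotent D ∧ M ≤ Subgroup.normalizer ((Q ⊓ Subgroup.centralizer (D : Set G) : Subgroup G) : Set G) ∧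
          Q ⊓ Subgroup.centralizer (D : Set G) < Q ∧
          Nat.card Q = Nat.card ↥(Q ⊓ Subgroup.centralizer (D : Set G)) * Nat.card ↥(Cfsg.sigmaCore M ⊓ Subgroup.centralizer (K : Set G)) ^ Nat.card K ∧
          (∀ a ∈ Q, ∀ b ∈ Q, a ^ Nat.card ↥(Cfsg.sigmaCore M ⊓ Subgroup.centralizer (K : Set G)) ∈ Q ⊓ Subgroup.centralizer (D : Set G) ∧
            a * b * a⁻¹ * b⁻¹ ∈ Q ⊓ Subgroup.centralizer (D : Set G)) ∧
          ∀ N : Subgroup G, Q ⊓ Subgroup.centralizer (D : Set G) < N → N < Q → ¬ M ≤ Subgroup.normalizer (N : Set G)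

def H1438 (G : Type u) [Group G] [Finite G] : Prop :=
  ∀ (M : Subgroup G) (hM : IsCoatom M) (H : Subgroup G) (hH : H ≤ Cfsg.sigmaCore M) (hH1 : H ≠ ⊥)
    (hHall : (Nat.card H).Coprime (H.relIndex (Cfsg.sigmaCore M))),
    (∃ X : Subgroup G, IsCyclic X ∧ (∀ p : ℕ, p.Prime → p ∣ Nat.card X → p ∈ Cfsg.tau2 M) ∧
        M ⊓ Subgroup.centralizer (H : Set G) = (Cfsg.sigmaCore M ⊓ Subgroup.centralizer (H : Set G)) ⊔ X) ∧
      ∀ x ∈ H, ∀ g : G, g * x * g⁻¹ ∈ H → ∃ n ∈ M ⊓ Subgroup.normalizer (H : Set G), n * x * n⁻¹ = g * x * g⁻¹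

def H1440 (G : Type u) [Group G] [Finite G] : Prop :=
  ∀ (M : Subgroup G) (hM : IsCoatom M) (K U : Subgroup G) (hKU : Cfsg.IsSigmaDecomposition M K U) (g : G) (hg : g ∉ M) (hX : Cfsg.fittingOf M ⊓ (Cfsg.fittingOf M).map (MulAut.conj g).toMonoidHom ≠ ⊥),
    (Cfsg.fittingOf M ⊓ (Cfsg.fittingOf M).map (MulAut.conj g).toMonoidHom ≤ Cfsg.fittingHallOf M ∧ IsCyclic ↥(Cfsg.fittingOf M ⊓ (Cfsg.fittingOf M).map (MulAut.conj g).toMonoidHom)) ∧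
      (⁅M, M⁆ = Cfsg.fittingOf M ∧ Cfsg.fittingOf M = Cfsg.sigmaCore M ⊔ Cfsg.piCoreOf {q | q.Prime ∧ q ∉ Cfsg.sigma M} (Cfsg.fittingOf M)) ∧
      ((K = ⊥ ∧ IsMulCommutative (Cfsg.fittingHallOf M) ∧ Cfsg.RankLE 2 (Cfsg.fittingHallOf M) ∧ ¬ Cfsg.RankLE 1 (Cfsg.fittingHallOf M)) ∨
       (∃ p : ℕ, p.Prime ∧ Nat.card ↥(Cfsg.fittingOf M ⊓ (Cfsg.fittingOf M).map (MulAut.conj g).toMonoidHom) = p ∧ p ∈ Cfsg.sigma M ∧ p ∉ Cfsg.beta M ∧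
          ¬ IsMulCommutative (Cfsg.pCore p ↥(Cfsg.fittingHallOf M)) ∧ IsCyclic (Cfsg.pPrimeCore p ↥(Cfsg.fittingHallOf M)) ∧
          ∀ q : ℕ, q.Prime → q ∣ Nat.card (Cfsg.fittingHallOf M) → Monoid.exponent (↥M ⧸ Cfsg.fittingHall ↥M) ∣ q - 1) ∨
       (∃ p : ℕ, p.Prime ∧ Nat.card ↥(Cfsg.fittingOf M ⊓ (Cfsg.fittingOf M).map (MulAut.conj g).toMonoidHom) = p ∧ p ∈ Cfsg.sigma M ∧ p ∉ Cfsg.beta M ∧
          IsCyclic (Cfsg.pPrimeCore p ↥(Cfsg.fittingHallOf M)) ∧ Nat.card (Cfsg.pCore p ↥(Cfsg.fittingHallOf M)) = p ^ 3 ∧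
          ¬ IsMulCommutative (Cfsg.pCore p ↥(Cfsg.fittingHallOf M)) ∧ K ≠ ⊥ ∧ U = ⊥ ∧ (Cfsg.fittingHallOf M).relIndex M ∣ p + 1))

end Cfsg.Agent.Lib.Helper34.BGRows
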