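import Cfsg.Agent.S1466
import Cfsg.Agent.S1467
import Cfsg.Agent.Lib.Helper34.Functor

/-! Relative Puig series inside an ambient group. -/

set_option autoImplicit false
open Cfsg

namespace Cfsg.Agent.Lib.Helper34

variable {G : Type*} [Group G]

theorem le_normalizer_iff_conj {X A : Subgroup G} :
    X ≤ Subgroup.normalizer (A : Set G) ↔ ∀ x ∈ X, ∀ a ∈ A, x * a * x⁻¹ ∈ A := by
  constructor
  · intro h x hx a ha
    exact (Subgroup.mem_normalizer_iff.mp (h hx) a).mp ha
  · intro h x hx
    rw [Subgroup.mem_normalizer_iff]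
    intro a
    refine ⟨h x hx a, fun ha => ?_⟩
    have := h x⁻¹ (X.inv_mem hx) _ ha
    simpa [mul_assoc] using this

/-- The relative Puig step `L_H(X)`, as a subgroup of the ambient group. -/
def lstep (H X : Subgroup G) : Subgroup G :=
  sSup {A : Subgroup G | A ≤ H ∧ IsMulCommutative A ∧ X ≤ Subgroup.normalizer (A : Set G)}

/-- The relative Puig series of `H`. -/
def lseq (H : Subgroup G) : ℕ → Subgroup G
  | 0 => ⊥
  | n + 1 => lstep H (lseq H n)

theorem lstep_le (H X : Subgroup G) : lstep H X ≤ H :=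
  sSup_le fun _ hA => hA.1

theorem lstep_anti (H : Subgroup G) {X Y : Subgroup G} (h : X ≤ Y) : lstep H Y ≤ lstep H X :=
  sSup_le_sSup fun _ hA => ⟨hA.1, hA.2.1, h.trans hA.2.2⟩

theorem lstep_mono {H K : Subgroup G} (h : H ≤ K) (X : Subgroup G) : lstep H X ≤ lstep K X :=
  sSup_le_sSup fun _ hA => ⟨hA.1.trans h, hA.2.1, hA.2.2⟩

theorem le_lstep {H X A : Subgroup G} (h1 : A ≤ H) (h2 : IsMulCommutative A)
    (h3 : X ≤ Subgroup.normalizer (A : Set G)) : A ≤ lstep H X :=
  le_sSup ⟨h1, h2, h3⟩

theorem map_puigStep (H : Subgroup G) (X : Subgroup H) :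
    (puigStep X).map H.subtype = lstep H (X.map H.subtype) := by
  apply le_antisymm
  · rw [Subgroup.map_le_iff_le_comap]
    refine sSup_le fun A hA => ?_
    rw [← Subgroup.map_le_iff_le_comap]
    refine le_lstep (Subgroup.map_subtype_le A) ?_ ?_
    · haveI := hA.1
      exact Subgroup.map_isMulCommutative A H.subtype
    · rw [le_normalizer_iff_conj]
      rintro _ ⟨x, hx, rfl⟩ _ ⟨a, ha, rfl⟩
      exact ⟨x * a * x⁻¹, (le_normalizer_iff_conj.mp hA.2) x hx a ha, by simp⟩
  · refine sSup_le fun B hB => ?_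
    have hBe : (B.subgroupOf H).map H.subtype = B := Subgroup.map_subgroupOf_eq_of_le hB.1
    rw [← hBe]
    apply Subgroup.map_mono
    refine le_sSup ⟨?_, ?_⟩
    · haveI := hB.2.1
      exact Subgroup.subgroupOf_isMulCommutative H B
    · rw [le_normalizer_iff_conj]
      intro x hx a ha
      rw [Subgroup.mem_subgroupOf] at ha ⊢
      have := (le_normalizer_iff_conj.mp hB.2.2) x ⟨x, hx, rfl⟩ a ha
      simpa using this

theorem map_puigSeq (H : Subgroup G) (n : ℕ) :
    (puigSeq H n).map H.subtype = lseq H n := by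
  induction n with
  | zero => simp [puigSeq, lseq]
  | succ n ih => rw [show puigSeq H (n+1) = puigStep (puigSeq H n) from rfl, map_puigStep, ih]; rfl

theorem map_puigSubgroup (H : Subgroup G) :
    (puigSubgroup H).map H.subtype = ⨅ n : ℕ, lseq H (2 * n + 1) := by
  unfold puigSubgroup
  rw [Subgroup.map_iInf _ H.subtype_injective]
  simp only [map_puigSeq]

theorem map_puigLower (H : Subgroup G) :
    (puigLower H).map H.subtype = ⨆ n : ℕ, lseq H (2 * n) := by
  unfold puigLower
  rw [Subgroup.map_iSup]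
  simp only [map_puigSeq]

theorem lstep_top (X : Subgroup G) : lstep ⊤ X = puigStep X := by
  simp [lstep, puigStep]

theorem lseq_top (n : ℕ) : lseq (⊤ : Subgroup G) n = puigSeq G n := by
  induction n with
  | zero => rfl
  | succ n ih => rw [show puigSeq G (n+1) = puigStep (puigSeq G n) from rfl, ← ih, ← lstep_top]; rfl

theorem map_lstep_le {G' : Type*} [Group G'] (e : G →* G') (H X : Subgroup G) :
    (lstep H X).map e ≤ lstep (H.map e) (X.map e) := by
  rw [Subgroup.map_le_iff_le_comap]
  refine sSup_le fun A hA => ?_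
  rw [← Subgroup.map_le_iff_le_comap]
  refine le_lstep (Subgroup.map_mono hA.1) ?_ ?_
  · haveI := hA.2.1
    exact Subgroup.map_isMulCommutative A e
  · rw [le_normalizer_iff_conj]
    rintro _ ⟨x, hx, rfl⟩ _ ⟨a, ha, rfl⟩
    exact ⟨x * a * x⁻¹, (le_normalizer_iff_conj.mp hA.2.2) x hx a ha, by simp⟩

theorem map_lstep {G' : Type*} [Group G'] (e : G ≃* G') (H X : Subgroup G) :
    (lstep H X).map e.toMonoidHom = lstep (H.map e.toMonoidHom) (X.map e.toMonoidHom) := by
  apply le_antisymm (map_lstep_le _ _ _)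
  have h := map_lstep_le e.symm.toMonoidHom (H.map e.toMonoidHom) (X.map e.toMonoidHom)
  have hid : ∀ K : Subgroup G, (K.map e.toMonoidHom).map e.symm.toMonoidHom = K := by
    intro K
    rw [Subgroup.map_map]
    have : e.symm.toMonoidHom.comp e.toMonoidHom = MonoidHom.id G := by
      ext x; simp
    rw [this, Subgroup.map_id]
  rw [hid, hid] at h
  intro x hx
  exact ⟨e.symm x, h ⟨x, hx, rfl⟩, by simp⟩

theorem map_lseq {G' : Type*} [Group G'] (e : G ≃* G') (H : Subgroup G) (n : ℕ) :
    (lseq H n).map e.toMonoidHom = lseq (H.map e.toMonoidHom) n := by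
  induction n with
  | zero => simp [lseq]
  | succ n ih => rw [show lseq H (n+1) = lstep H (lseq H n) from rfl, map_lstep, ih]; rfl

theorem normalizer_le_normalizer_lseq (H : Subgroup G) (n : ℕ) :
    Subgroup.normalizer (H : Set G) ≤ Subgroup.normalizer ((lseq H n : Subgroup G) : Set G) := by
  intro g hg
  apply mem_normalizer_of_map_conj_eq
  have := map_lseq (MulAut.conj g) H n
  rw [map_conj_eq_self_of_mem_normalizer hg] at this
  exact this

theorem lseq_normal {H : Subgroup G} (hH : H.Normal) (n : ℕ) : (lseq H n).Normal := by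
  rw [← Subgroup.normalizer_eq_top_iff, eq_top_iff]
  refine le_trans ?_ (normalizer_le_normalizer_lseq H n)
  rw [Subgroup.normalizer_eq_top_iff.mpr hH]

theorem lseq_le (H : Subgroup G) (n : ℕ) : lseq H n ≤ H := by
  cases n with
  | zero => exact bot_le
  | succ n => exact lstep_le _ _

theorem map_puigSeq_equiv {G' : Type*} [Group G'] (e : G ≃* G') (n : ℕ) :
    (puigSeq G n).map e.toMonoidHom = puigSeq G' n := by
  rw [← lseq_top, ← lseq_top, map_lseq]
  congr 1
  rw [← MonoidHom.range_eq_map, MonoidHom.range_eq_top]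
  exact e.surjective

theorem map_puigSubgroup_equiv {G' : Type*} [Group G'] (e : G ≃* G') :
    (puigSubgroup G).map e.toMonoidHom = puigSubgroup G' := by
  unfold puigSubgroup
  rw [Subgroup.map_iInf _ e.injective]
  simp only [map_puigSeq_equiv]

theorem map_puigLower_equiv {G' : Type*} [Group G'] (e : G ≃* G') :
    (puigLower G).map e.toMonoidHom = puigLower G' := by
  unfold puigLower
  rw [Subgroup.map_iSup]
  simp only [map_puigSeq_equiv]

/-- `C_H(L_i(H)) ≤ L_i(H)` for a finite `p`-subgroup `H` and `i > 0`. -/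
theorem inf_centralizer_lseq_le {p : ℕ} [Fact p.Prime] (H : Subgroup G) [Finite H]
    (hH : IsPGroup p H) (i : ℕ) (hi : 0 < i) :
    H ⊓ Subgroup.centralizer ((lseq H i : Subgroup G) : Set G) ≤ lseq H i := by
  rcases subsingleton_or_nontrivial H with hs | hn
  · intro x hx
    have : (⟨x, hx.1⟩ : H) = 1 := Subsingleton.elim _ _
    have h1 : x = 1 := congrArg Subtype.val this
    rw [h1]; exact one_mem _
  · intro x hx
    have h := ((Cfsg.Agent.S1466.result p hH).1 i hi).2
    rw [← map_puigSeq]
    refine ⟨⟨x, hx.1⟩, h ?_, rfl⟩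
    rw [Subgroup.mem_centralizer_iff]
    intro y hy
    apply Subtype.ext
    have hy' : (y : G) ∈ lseq H i := by
      rw [← map_puigSeq]; exact ⟨y, hy, rfl⟩
    exact (Subgroup.mem_centralizer_iff.mp hx.2) y hy'

end Cfsg.Agent.Lib.Helper34
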