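import Cfsg.Agent.Lib.Helper34.Puig

/-! Relative Puig subgroups `L(H)`, `L_*(H)` inside an ambient group; the functor `Z(L(·))`. -/

set_option autoImplicit false
open Cfsg

namespace Cfsg.Agent.Lib.Helper34

variable {G : Type*} [Group G]

/-- `L(H)` inside the ambient group. -/
def lsub (H : Subgroup G) : Subgroup G := ⨅ n : ℕ, lseq H (2 * n + 1)

/-- `L_*(H)` inside the ambient group. -/
def llow (H : Subgroup G) : Subgroup G := ⨆ n : ℕ, lseq H (2 * n)

theorem map_puigSubgroup' (H : Subgroup G) : (puigSubgroup H).map H.subtype = lsub H :=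
  map_puigSubgroup H

theorem map_puigLower' (H : Subgroup G) : (puigLower H).map H.subtype = llow H :=
  map_puigLower H

theorem lsub_le (H : Subgroup G) : lsub H ≤ H := (iInf_le _ 0).trans (lseq_le _ _)

theorem lsub_le_lseq (H : Subgroup G) (n : ℕ) : lsub H ≤ lseq H (2 * n + 1) := iInf_le _ n

theorem lseq_le_llow (H : Subgroup G) (n : ℕ) : lseq H (2 * n) ≤ llow H :=
  le_iSup (fun n => lseq H (2 * n)) n

theorem lstep_llow (H : Subgroup G) [Finite H] : lstep H (llow H) = lsub H := by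
  rw [← map_puigLower', ← map_puigStep, ← map_puigSubgroup',
    (Cfsg.Agent.S1467.result (G := H)).2.2.2.2.2.1]

theorem lstep_lsub (H : Subgroup G) [Finite H] : lstep H (lsub H) = llow H := by
  rw [← map_puigLower', ← map_puigSubgroup', ← map_puigStep,
    (Cfsg.Agent.S1467.result (G := H)).2.2.2.2.2.2]

theorem llow_le_lsub (H : Subgroup G) [Finite H] : llow H ≤ lsub H := by
  rw [← map_puigLower', ← map_puigSubgroup']
  exact Subgroup.map_mono (Cfsg.Agent.S1467.result (G := H)).2.2.2.2.1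

/-- If `L(S) ≤ R ≤ S` then `L(R) = L(S)`. -/
theorem lsub_eq_of_le {R S : Subgroup G} [Finite S] (h1 : lsub S ≤ R) (h2 : R ≤ S) :
    lsub R = lsub S := by
  have hA : lsub S ≤ lstep R (llow S) := by
    rw [← lstep_llow S]
    refine sSup_le fun B hB => ?_
    refine le_lstep ?_ hB.2.1 hB.2.2
    refine le_trans ?_ h1
    rw [← lstep_llow S]
    exact le_sSup hB
  have hB : lstep R (lsub S) ≤ llow S := by
    rw [← lstep_lsub S]
    exact lstep_mono h2 _
  have key1 : ∀ n, lseq R (2 * n) ≤ llow S ∧ lsub S ≤ lseq R (2 * n + 1) := by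
    intro n
    induction n with
    | zero => exact ⟨bot_le, hA.trans (lstep_anti _ bot_le)⟩
    | succ n ih =>
      have h3 : lseq R (2 * (n + 1)) ≤ llow S := (lstep_anti R ih.2).trans hB
      exact ⟨h3, hA.trans (lstep_anti _ h3)⟩
  have key2 : ∀ n, lseq S (2 * n) ≤ lseq R (2 * n) ∧ lseq R (2 * n + 1) ≤ lseq S (2 * n + 1) := by
    have stepA : ∀ n, lseq S (2 * n) ≤ lseq R (2 * n) → lseq R (2 * n + 1) ≤ lseq S (2 * n + 1) :=
      fun n h => (lstep_anti _ h).trans (lstep_mono h2 _)
    intro n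
    induction n with
    | zero => exact ⟨le_refl _, stepA 0 (le_refl _)⟩
    | succ n ih =>
      have h3 : lseq S (2 * (n + 1)) ≤ lseq R (2 * (n + 1)) := by
        refine sSup_le fun B hB => ?_
        refine le_lstep ?_ hB.2.1 (ih.2.trans hB.2.2)
        have h4 : B ≤ lseq S (2 * (n + 1)) := le_sSup hB
        exact h4.trans ((lseq_le_llow S _).trans ((llow_le_lsub S).trans h1))
      exact ⟨h3, stepA _ h3⟩
  apply le_antisymm
  · exact iInf_mono fun n => (key2 n).2
  · exact le_iInf fun n => (key1 n).2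

theorem map_lsub {G' : Type*} [Group G'] (e : G ≃* G') (H : Subgroup G) :
    (lsub H).map e.toMonoidHom = lsub (H.map e.toMonoidHom) := by
  unfold lsub
  rw [Subgroup.map_iInf _ e.injective]
  simp only [map_lseq]

theorem normalizer_le_normalizer_lsub (H : Subgroup G) :
    Subgroup.normalizer (H : Set G) ≤ Subgroup.normalizer ((lsub H : Subgroup G) : Set G) := by
  intro g hg
  apply mem_normalizer_of_map_conj_eq
  have := map_lsub (MulAut.conj g) H
  rw [map_conj_eq_self_of_mem_normalizer hg] at this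
  exact this

theorem lsub_normal {H : Subgroup G} (hH : H.Normal) : (lsub H).Normal := by
  rw [← Subgroup.normalizer_eq_top_iff, eq_top_iff]
  refine le_trans ?_ (normalizer_le_normalizer_lsub H)
  rw [Subgroup.normalizer_eq_top_iff.mpr hH]

/-- `C_H(L(H)) ≤ L(H)` for a finite `p`-subgroup `H`. -/
theorem inf_centralizer_lsub_le {p : ℕ} [Fact p.Prime] (H : Subgroup G) [Finite H]
    (hH : IsPGroup p H) :
    H ⊓ Subgroup.centralizer ((lsub H : Subgroup G) : Set G) ≤ lsub H := by
  rcases subsingleton_or_nontrivial H with hs | hn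
  · intro x hx
    have : (⟨x, hx.1⟩ : H) = 1 := Subsingleton.elim _ _
    have h1 : x = 1 := congrArg Subtype.val this
    rw [h1]; exact one_mem _
  · intro x hx
    have h := (Cfsg.Agent.S1466.result p hH).2.2.1.2
    rw [← map_puigSubgroup']
    refine ⟨⟨x, hx.1⟩, h ?_, rfl⟩
    rw [Subgroup.mem_centralizer_iff]
    intro y hy
    apply Subtype.ext
    have hy' : (y : G) ∈ lsub H := by
      rw [← map_puigSubgroup']; exact ⟨y, hy, rfl⟩
    exact (Subgroup.mem_centralizer_iff.mp hx.2) y hy'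

/-- An abelian subgroup of `H` normalised by `H` lies in `L_*(H)`. -/
theorem le_llow_of_normal {H A : Subgroup G} (h1 : A ≤ H) (h2 : IsMulCommutative A)
    (h3 : H ≤ Subgroup.normalizer (A : Set G)) : A ≤ llow H :=
  (le_lstep h1 h2 ((lseq_le H 1).trans h3)).trans (lseq_le_llow H 1)

/-- The functor `Q ↦ Z(L(Q))`. -/
def zPuig (Q : Type*) [Group Q] : Subgroup Q :=
  (Subgroup.center ↥(puigSubgroup Q)).map (puigSubgroup Q).subtype

theorem map_center_subtype (X : Subgroup G) :
    (Subgroup.center ↥X).map X.subtype = X ⊓ Subgroup.centralizer (X : Set G) := by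
  ext x
  constructor
  · rintro ⟨y, hy, rfl⟩
    refine Subgroup.mem_inf.mpr ⟨y.2, ?_⟩
    rw [Subgroup.mem_centralizer_iff]
    intro z hz
    have := (Subgroup.mem_center_iff.mp hy) ⟨z, hz⟩
    exact congrArg Subtype.val this
  · intro hx
    obtain ⟨hx1, hx2⟩ := Subgroup.mem_inf.mp hx
    refine Subgroup.mem_map.mpr ⟨⟨x, hx1⟩, ?_, rfl⟩
    rw [Subgroup.mem_center_iff]
    intro z
    apply Subtype.ext
    exact (Subgroup.mem_centralizer_iff.mp hx2) z z.2

theorem zPuig_eq (Q : Type*) [Group Q] :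
    zPuig Q = puigSubgroup Q ⊓ Subgroup.centralizer (puigSubgroup Q : Set Q) :=
  map_center_subtype _

theorem map_inf_centralizer {G' : Type*} [Group G'] (f : G →* G') (hf : Function.Injective f)
    {X H : Subgroup G} (hX : X ≤ H) :
    (X ⊓ Subgroup.centralizer (X : Set G)).map f
      = X.map f ⊓ Subgroup.centralizer ((X.map f : Subgroup G') : Set G') := by
  ext y
  constructor
  · rintro ⟨x, hx, rfl⟩
    obtain ⟨hx1, hx2⟩ := Subgroup.mem_inf.mp hx
    refine Subgroup.mem_inf.mpr ⟨⟨x, hx1, rfl⟩, ?_⟩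
    rw [Subgroup.mem_centralizer_iff]
    rintro _ ⟨z, hz, rfl⟩
    rw [← map_mul, ← map_mul, (Subgroup.mem_centralizer_iff.mp hx2) z hz]
  · intro hy
    obtain ⟨⟨x, hx, rfl⟩, h2⟩ := Subgroup.mem_inf.mp hy
    refine Subgroup.mem_map.mpr ⟨x, Subgroup.mem_inf.mpr ⟨hx, ?_⟩, rfl⟩
    rw [Subgroup.mem_centralizer_iff]
    intro z hz
    apply hf
    rw [map_mul, map_mul]
    exact (Subgroup.mem_centralizer_iff.mp h2) _ ⟨z, hz, rfl⟩

/-- `Z(L(H))` inside the ambient group. -/
theorem map_zPuig (H : Subgroup G) :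
    (zPuig H).map H.subtype = lsub H ⊓ Subgroup.centralizer ((lsub H : Subgroup G) : Set G) := by
  rw [zPuig_eq, map_inf_centralizer _ H.subtype_injective (le_top : _ ≤ (⊤ : Subgroup H)),
    map_puigSubgroup']

universe u

theorem isCharPFunctor_zPuig (p : ℕ) [Fact p.Prime] : IsCharPFunctor.{u} p (fun Q _ => zPuig Q) := by
  constructor
  · intro Q _ _ hQ hn
    have h1 : puigSubgroup Q ≠ ⊥ := (Cfsg.Agent.S1466.result p hQ).2.2.2.1
    haveI : Nontrivial ↥(puigSubgroup Q) := (Subgroup.nontrivial_iff_ne_bot _).mpr h1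
    have h2 : IsPGroup p ↥(puigSubgroup Q) := hQ.to_subgroup _
    haveI := h2.center_nontrivial
    have h3 : Subgroup.center ↥(puigSubgroup Q) ≠ ⊥ := (Subgroup.nontrivial_iff_ne_bot _).mp this
    intro h
    apply h3
    unfold zPuig at h
    rwa [Subgroup.map_eq_bot_iff_of_injective _ (Subgroup.subtype_injective _)] at h
  · intro Q R _ _ _ _ φ
    show (zPuig Q).map φ.toMonoidHom = zPuig R
    rw [zPuig_eq, zPuig_eq, map_inf_centralizer _ φ.injective (le_top : _ ≤ (⊤ : Subgroup Q)),
      map_puigSubgroup_equiv]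

end Cfsg.Agent.Lib.Helper34
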